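-- Team project PHYP (S5974, helper63), regime [T2O] (r = 2, q odd): interface file of the
-- sub-coordinator (helper79).  Vocabulary of helper23's OHYP interface (Inv, Nd, Plus, Perp).
import Mathlib
import Cfsg.Prelude.Def_GeometricClasses
import Cfsg.Prelude.Def_Classical
import Cfsg.Agent.Lib.Helper23.OHyp.Defs

set_option autoImplicit false
open scoped MatrixGroups
open Matrix

namespace Cfsg.Agent.Lib.Helper79.PHyp

open Cfsg.Agent.Lib.Helper23.OHyp

universe u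

/-- [NEG1] an isometry with square `-1`, when `-1 = i * i` is a square, fixes a nondegenerate
plus-type subspace of every even dimension. -/
def PkgNeg1 : Prop :=
  ∀ (F : Type u) [Field F] [Fintype F] (ι : Type) [Fintype ι] [DecidableEq ι]
    (Q : (ι → F) → F), Cfsg.Geo.IsNondegenerateQuadraticForm Q → (2 : F) ≠ 0 →
    ∀ x : Matrix ι ι F, (∀ v, Q (x *ᵥ v) = Q v) → x * x = -1 →
    ∀ i : F, i * i = -1 →
    ∀ m : ℕ, Even m → m ≤ Fintype.card ι →
      ∃ W : Submodule F (ι → F), Module.finrank F W = m ∧ Nd Q W ∧ Plus Q W ∧ Inv x W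

/-- [CPX] an isometry with square `-1`, when `-1` is not a square: every nonzero invariant
nondegenerate subspace contains an invariant nondegenerate plane which is not of plus type. -/
def PkgCpx : Prop :=
  ∀ (F : Type u) [Field F] [Fintype F] (ι : Type) [Fintype ι] [DecidableEq ι]
    (Q : (ι → F) → F), Cfsg.Geo.IsNondegenerateQuadraticForm Q → (2 : F) ≠ 0 →
    ¬ IsSquare (-1 : F) →
    ∀ x : Matrix ι ι F, (∀ v, Q (x *ᵥ v) = Q v) → x * x = -1 →
    ∀ W : Submodule F (ι → F), Inv x W → Nd Q W → W ≠ ⊥ →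
      ∃ P : Submodule F (ι → F), P ≤ W ∧ Inv x P ∧ Nd Q P ∧ Module.finrank F P = 2 ∧
        ¬ Plus Q P

/-- [T2O] the regime `r = 2`, `q` odd of S5974, in the shape of the frozen statement. -/
def PkgT2O : Prop :=
  ∀ (F : Type u) [Field F] [Fintype F], Odd (Fintype.card F) →
    ∀ d m : ℕ, 4 ≤ d → 2 ≤ m → Even m → m < d →
    ((∀ x : GL (Fin d ⊕ Fin d) F, x ∈ Cfsg.Geo.omegaGL (Cfsg.quadFormPlus d F) →
      (∃ z : F, ((x ^ 2 : GL (Fin d ⊕ Fin d) F) : Matrix (Fin d ⊕ Fin d) (Fin d ⊕ Fin d) F) =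
        z • (1 : Matrix (Fin d ⊕ Fin d) (Fin d ⊕ Fin d) F)) →
      (∀ z : F, (x : Matrix (Fin d ⊕ Fin d) (Fin d ⊕ Fin d) F) ≠
        z • (1 : Matrix (Fin d ⊕ Fin d) (Fin d ⊕ Fin d) F)) →
      ∃ W : Submodule F (Fin d ⊕ Fin d → F),
        (Module.finrank F ↥W = m ∧
          (∀ u ∈ W, u ≠ 0 → ∃ v ∈ W, QuadraticMap.polar (Cfsg.quadFormPlus d F) u v ≠ 0) ∧
          ∃ U : Submodule F (Fin d ⊕ Fin d → F), U ≤ W ∧ 2 * Module.finrank F ↥U = m ∧
            ∀ u ∈ U, Cfsg.quadFormPlus d F u = 0) ∧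
        W.map (Matrix.toLin' (x : Matrix (Fin d ⊕ Fin d) (Fin d ⊕ Fin d) F)) ≤ W) ↔
      ((2 * d) % 4 = 2 ∨ m % 4 = 0 ∨ Fintype.card F % 4 = 1))

end Cfsg.Agent.Lib.Helper79.PHyp
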