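-- Team project PHYP (S5974, helper63), regime [T2O]: package [CPX] (helper79).
import Mathlib
import Cfsg.Agent.Lib.Helper79.PHyp.T2ODefs

set_option autoImplicit false
set_option linter.unusedSectionVars false
open scoped MatrixGroups
open Matrix

namespace Cfsg.Agent.Lib.Helper79.PHyp

open Cfsg.Agent.Lib.Helper23.OHyp

universe u

section gen
variable {F : Type u} [Field F] {ι : Type} [Fintype ι] [DecidableEq ι]

theorem q_zero' (Q : (ι → F) → F) (hQ : Cfsg.Geo.IsNondegenerateQuadraticForm Q) : Q 0 = 0 := by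
  have h := hQ.smul 0 0
  simpa using h

theorem polar_isom' (Q : (ι → F) → F) (x : Matrix ι ι F) (hx : ∀ v, Q (x *ᵥ v) = Q v)
    (u v : ι → F) : QuadraticMap.polar Q (x *ᵥ u) (x *ᵥ v) = QuadraticMap.polar Q u v := by
  unfold QuadraticMap.polar
  rw [← mulVec_add, hx, hx, hx]

/-- The quadratic form on the plane spanned by `v` and `x v` when `x * x = -1`. -/
theorem q_plane (Q : (ι → F) → F) (hQ : Cfsg.Geo.IsNondegenerateQuadraticForm Q)
    (h2 : (2 : F) ≠ 0) (x : Matrix ι ι F) (hx : ∀ v, Q (x *ᵥ v) = Q v) (hxx : x * x = -1)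
    (v : ι → F) (a b : F) : Q (a • v + b • (x *ᵥ v)) = (a ^ 2 + b ^ 2) * Q v := by
  have hB := hQ.polar_bilinear
  have hxy : x *ᵥ (x *ᵥ v) = -v := by
    rw [mulVec_mulVec, hxx, neg_mulVec, one_mulVec]
  have hp : QuadraticMap.polar Q v (x *ᵥ v) = 0 := by
    have h := polar_isom' Q x hx v (x *ᵥ v)
    rw [hxy] at h
    have h3 : QuadraticMap.polar Q (x *ᵥ v) (-v) = -QuadraticMap.polar Q v (x *ᵥ v) := by
      have h4 := hB.smul_right (-1) (x *ᵥ v) v
      rw [neg_one_smul] at h4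
      rw [h4, QuadraticMap.polar_comm]
      ring
    rw [h3] at h
    have h5 : (2 : F) * QuadraticMap.polar Q v (x *ᵥ v) = 0 := by linear_combination -h
    rcases mul_eq_zero.mp h5 with h6 | h6
    · exact absurd h6 h2
    · exact h6
  have h1 : Q (a • v + b • (x *ᵥ v)) = Q (a • v) + Q (b • (x *ᵥ v)) +
      QuadraticMap.polar Q (a • v) (b • (x *ᵥ v)) := by
    unfold QuadraticMap.polar
    ring
  rw [h1, hQ.smul, hQ.smul, hx, hB.smul_left, hB.smul_right, hp]
  ring

end gen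

/-- [CPX] -/
theorem pkgCpx : PkgCpx.{u} := by
  intro F _ _ ι _ _ Q hQ h2 hsq x hx hxx W hinv hnd hne
  have hB := hQ.polar_bilinear
  have hQ0 := q_zero' Q hQ
  -- a nonsingular vector of `W`
  obtain ⟨v, hvW, hQv⟩ : ∃ v ∈ W, Q v ≠ 0 := by
    by_contra hcon
    push Not at hcon
    obtain ⟨w, hwW, hw0⟩ := Submodule.exists_mem_ne_zero_of_ne_bot hne
    obtain ⟨-, ⟨u, huW, hu⟩⟩ := hnd w hwW hw0
    apply hu
    unfold QuadraticMap.polar
    rw [hcon _ (W.add_mem hwW huW), hcon w hwW, hcon u huW]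
    ring
  have hyW : x *ᵥ v ∈ W := hinv ⟨v, hvW, by simp [Matrix.toLin'_apply]⟩
  have hxy : x *ᵥ (x *ᵥ v) = -v := by
    rw [mulVec_mulVec, hxx, neg_mulVec, one_mulVec]
  have hform := q_plane Q hQ h2 x hx hxx v
  -- anisotropy
  have haniso : ∀ a b : F, (a ^ 2 + b ^ 2) * Q v = 0 → a = 0 ∧ b = 0 := by
    intro a b h
    have h1 : a ^ 2 + b ^ 2 = 0 := by
      rcases mul_eq_zero.mp h with h3 | h3
      · exact h3
      · exact absurd h3 hQv
    by_cases hb : b = 0
    · subst hb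
      have : a ^ 2 = 0 := by simpa using h1
      exact ⟨pow_eq_zero_iff (two_ne_zero) |>.mp this, rfl⟩
    · exfalso
      apply hsq
      refine ⟨a / b, ?_⟩
      field_simp
      linear_combination -h1
  have hmemP : ∀ z : ι → F, z ∈ Submodule.span F {v, x *ᵥ v} ↔
      ∃ a b : F, a • v + b • (x *ᵥ v) = z := fun z => Submodule.mem_span_pair
  have hanisoP : ∀ z ∈ Submodule.span F {v, x *ᵥ v}, z ≠ 0 → Q z ≠ 0 := by
    intro z hz hz0 hQz
    obtain ⟨a, b, rfl⟩ := (hmemP z).mp hz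
    rw [hform] at hQz
    obtain ⟨rfl, rfl⟩ := haniso a b hQz
    simp at hz0
  have hfinP : Module.finrank F (Submodule.span F {v, x *ᵥ v}) = 2 := by
    have hli : LinearIndependent F ![v, x *ᵥ v] := by
      rw [LinearIndependent.pair_iff]
      intro a b hab
      have h1 := hform a b
      rw [hab, hQ0] at h1
      exact haniso a b h1.symm
    have h1 := finrank_span_eq_card hli
    have hrange : Set.range ![v, x *ᵥ v] = {v, x *ᵥ v} := by
      simp [Set.pair_comm]
    rw [hrange] at h1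
    exact h1
  refine ⟨Submodule.span F {v, x *ᵥ v}, ?_, ?_, ?_, ?_, ?_⟩
  · rw [Submodule.span_le]
    rintro z (rfl | rfl)
    · exact hvW
    · exact hyW
  · rintro _ ⟨z, hz, rfl⟩
    obtain ⟨a, b, rfl⟩ := (hmemP z).mp hz
    rw [hmemP]
    refine ⟨-b, a, ?_⟩
    rw [Matrix.toLin'_apply, mulVec_add, mulVec_smul, mulVec_smul, hxy]
    simp only [smul_neg, neg_smul]
    abel
  · intro z hz hz0
    have hzz : QuadraticMap.polar Q z z ≠ 0 := by
      have h1 : QuadraticMap.polar Q z z = 2 * Q z := by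
        unfold QuadraticMap.polar
        have h3 : z + z = (2 : F) • z := (two_smul F z).symm
        rw [h3, hQ.smul]
        ring
      rw [h1]
      exact mul_ne_zero h2 (hanisoP z hz hz0)
    exact ⟨⟨z, hz, hzz⟩, ⟨z, hz, hzz⟩⟩
  · exact hfinP
  · rintro ⟨U, hUP, hUts, hUfin⟩
    have hU1 : 1 ≤ Module.finrank F U := by omega
    have hUne : U ≠ ⊥ := by
      rintro rfl
      rw [finrank_bot] at hU1
      omega
    obtain ⟨u, huU, hu0⟩ := Submodule.exists_mem_ne_zero_of_ne_bot hUne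
    exact hanisoP u (hUP huU) hu0 (hUts u huU)

end Cfsg.Agent.Lib.Helper79.PHyp
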