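-- Team project PHYP (S5974, helper63), regime [T2O] (r = 2, q odd): assembly (helper79).
import Mathlib
import Cfsg.Agent.Lib.Helper79.PHyp.T2ODefs
import Cfsg.Agent.Lib.Helper55.OEll.Defs
import Cfsg.Agent.Lib.Helper70.OPar.Defs

set_option autoImplicit false
set_option linter.unusedSectionVars false
open scoped MatrixGroups
open Matrix

namespace Cfsg.Agent.Lib.Helper79.PHyp

open Cfsg.Agent.Lib.Helper23.OHyp

universe u

section gen
variable {F : Type u} [Field F] {ι : Type} [Fintype ι] [DecidableEq ι]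

theorem inv_bot (x : Matrix ι ι F) : Inv x (⊥ : Submodule F (ι → F)) := by
  show Submodule.map _ _ ≤ _
  rw [Submodule.map_bot]

theorem inv_top (x : Matrix ι ι F) : Inv x (⊤ : Submodule F (ι → F)) := le_top

theorem inv_sup (x : Matrix ι ι F) {A B : Submodule F (ι → F)} (hA : Inv x A) (hB : Inv x B) :
    Inv x (A ⊔ B) := by
  show Submodule.map _ _ ≤ _
  rw [Submodule.map_sup]
  exact sup_le_sup hA hB

theorem nd_bot (Q : (ι → F) → F) : Nd Q (⊥ : Submodule F (ι → F)) := by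
  intro w hw hw0
  exact absurd ((Submodule.mem_bot F).mp hw) hw0

theorem nd_top (Q : (ι → F) → F) (hQ : Cfsg.Geo.IsNondegenerateQuadraticForm Q) :
    Nd Q (⊤ : Submodule F (ι → F)) := by
  intro w _ hw
  obtain ⟨⟨a, ha⟩, ⟨b, hb⟩⟩ := hQ.nondegenerate w hw
  exact ⟨⟨a, Submodule.mem_top, ha⟩, ⟨b, Submodule.mem_top, hb⟩⟩

theorem plus_bot (Q : (ι → F) → F) (hQ : Cfsg.Geo.IsNondegenerateQuadraticForm Q) :
    Plus Q (⊥ : Submodule F (ι → F)) := by
  refine ⟨⊥, le_rfl, ?_, by rw [finrank_bot]⟩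
  intro w hw
  rw [(Submodule.mem_bot F).mp hw]
  have h := hQ.smul 0 0
  simpa using h

theorem isUnit_det_of_sq (x : Matrix ι ι F) (hxx : x * x = -1) : IsUnit x.det := by
  apply Matrix.isUnit_det_of_right_inverse (B := -x)
  rw [mul_neg, hxx, neg_neg]

variable [Fintype F]

/-- The type of an invariant nondegenerate subspace of a "complex structure". -/
theorem cpx_type (hPerp : PkgPerp.{u}) (hSum : PkgSum.{u}) (hCpx : PkgCpx.{u})
    (Q : (ι → F) → F) (hQ : Cfsg.Geo.IsNondegenerateQuadraticForm Q) (h2 : (2 : F) ≠ 0)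
    (hsq : ¬ IsSquare (-1 : F)) (x : Matrix ι ι F) (hx : ∀ v, Q (x *ᵥ v) = Q v)
    (hxx : x * x = -1) :
    ∀ (k : ℕ) (W : Submodule F (ι → F)), Inv x W → Nd Q W → Module.finrank F W = 2 * k →
      (Plus Q W ↔ Even k) := by
  have hdet := isUnit_det_of_sq x hxx
  intro k
  induction k with
  | zero =>
    intro W hinv hnd hfin
    have hW : W = ⊥ := Submodule.finrank_eq_zero.mp (by omega)
    subst hW
    exact ⟨fun _ => Even.zero, fun _ => plus_bot Q hQ⟩
  | succ k ih =>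
    intro W hinv hnd hfin
    have hne : W ≠ ⊥ := by
      rintro rfl
      rw [finrank_bot] at hfin
      omega
    obtain ⟨P, hPW, hPinv, hPnd, hPfin, hPnot⟩ := hCpx F ι Q hQ h2 hsq x hx hxx W hinv hnd hne
    obtain ⟨W', hW'W, hW'inv, hW'nd, hperp, hsup, hfinsum⟩ :=
      hPerp F ι Q hQ x hx hdet W P hPW hinv hPinv hnd hPnd
    have hW'fin : Module.finrank F W' = 2 * k := by omega
    obtain ⟨-, -, htype⟩ := hSum F ι Q hQ h2 P W' hPnd hW'nd hperp
    have h1 := htype (by rw [hPfin]; exact even_two) (by rw [hW'fin]; exact even_two_mul k)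
    rw [hsup] at h1
    have h3 := ih W' hW'inv hW'nd hW'fin
    rw [h1, h3, Nat.even_add_one]
    constructor
    · intro h hk
      exact hPnot (h.mpr hk)
    · intro hk
      exact ⟨fun hp => absurd hp hPnot, fun he => absurd he hk⟩

/-- Invariant nondegenerate subspaces of every even dimension. -/
theorem cpx_exists (hPerp : PkgPerp.{u}) (hSum : PkgSum.{u}) (hCpx : PkgCpx.{u})
    (Q : (ι → F) → F) (hQ : Cfsg.Geo.IsNondegenerateQuadraticForm Q) (h2 : (2 : F) ≠ 0)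
    (hsq : ¬ IsSquare (-1 : F)) (x : Matrix ι ι F) (hx : ∀ v, Q (x *ᵥ v) = Q v)
    (hxx : x * x = -1) :
    ∀ k : ℕ, 2 * k ≤ Fintype.card ι →
      ∃ W : Submodule F (ι → F), Inv x W ∧ Nd Q W ∧ Module.finrank F W = 2 * k := by
  have hdet := isUnit_det_of_sq x hxx
  intro k
  induction k with
  | zero =>
    intro _
    exact ⟨⊥, inv_bot x, nd_bot Q, by rw [finrank_bot]⟩
  | succ k ih =>
    intro hk
    obtain ⟨W, hinv, hnd, hfin⟩ := ih (by omega)
    obtain ⟨W', -, hW'inv, hW'nd, hperp, hsup, hfinsum⟩ :=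
      hPerp F ι Q hQ x hx hdet ⊤ W le_top (inv_top x) hinv (nd_top Q hQ) hnd
    have htop : Module.finrank F (⊤ : Submodule F (ι → F)) = Fintype.card ι := by
      rw [finrank_top, Module.finrank_fintype_fun_eq_card]
    have hW'fin : 2 ≤ Module.finrank F W' := by omega
    have hne : W' ≠ ⊥ := by
      rintro rfl
      rw [finrank_bot] at hW'fin
      omega
    obtain ⟨P, hPW', hPinv, hPnd, hPfin, -⟩ :=
      hCpx F ι Q hQ h2 hsq x hx hxx W' hW'inv hW'nd hne
    have hperp' : Perp Q W P := fun u hu v hv => hperp u hu v (hPW' hv)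
    obtain ⟨hnd', hfin', -⟩ := hSum F ι Q hQ h2 W P hnd hPnd hperp'
    exact ⟨W ⊔ P, inv_sup x hinv hPinv, hnd', by rw [hfin', hfin, hPfin]; ring⟩

end gen

/-- [T2O] from the packages. -/
theorem pkgT2O_of (hScal : Cfsg.Agent.Lib.Helper70.OPar.PkgScal.{u})
    (hPlusQ : Cfsg.Agent.Lib.Helper70.OPar.PkgPlusQ.{u})
    (hOm1 : Cfsg.Agent.Lib.Helper70.OPar.PkgOm1.{u})
    (hInvolG : Cfsg.Agent.Lib.Helper55.OEll.PkgInvolG.{u})
    (hPerp : PkgPerp.{u}) (hSum : PkgSum.{u})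
    (hNeg1 : PkgNeg1.{u}) (hCpx : PkgCpx.{u}) : PkgT2O.{u} := by
  intro F _ _ hodd d m hd hm hme hmd
  have h2 : (2 : F) ≠ 0 := by
    apply Ring.two_ne_zero
    intro h
    rw [FiniteField.even_card_iff_char_two] at h
    rw [Nat.odd_iff] at hodd
    omega
  obtain ⟨hQ, hPlusTop⟩ := hPlusQ F h2 d
  have hcard : Fintype.card (Fin d ⊕ Fin d) = 2 * d := by
    rw [Fintype.card_sum, Fintype.card_fin]; ring
  have : Nonempty (Fin d ⊕ Fin d) := ⟨Sum.inl ⟨0, by omega⟩⟩
  have hiso_of : ∀ x : GL (Fin d ⊕ Fin d) F, x ∈ Cfsg.Geo.omegaGL (Cfsg.quadFormPlus d F) →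
      x ∈ Cfsg.isometryGroup F (Cfsg.quadFormPlus d F) := by
    rintro x ⟨g, -, rfl⟩
    exact g.2
  constructor
  · -- (⇒)
    intro hall
    by_contra hR
    push Not at hR
    obtain ⟨hR1, hR2, hR3⟩ := hR
    have hq3 : Fintype.card F % 4 = 3 := by
      obtain ⟨t, ht⟩ := hodd
      omega
    have hsq : ¬ IsSquare (-1 : F) := by
      rw [FiniteField.isSquare_neg_one_iff]
      omega
    have hdeven : Even d := by
      rw [Nat.even_iff]
      omega
    obtain ⟨x, hxΩ, hxx⟩ := hOm1 F hodd d (Or.inl hdeven)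
    have hxiso : ∀ v, Cfsg.quadFormPlus d F ((x : Matrix (Fin d ⊕ Fin d) (Fin d ⊕ Fin d) F) *ᵥ v)
        = Cfsg.quadFormPlus d F v := fun v => (hiso_of x hxΩ) v v
    have hzex : ∃ z : F, ((x ^ 2 : GL (Fin d ⊕ Fin d) F) :
        Matrix (Fin d ⊕ Fin d) (Fin d ⊕ Fin d) F) =
        z • (1 : Matrix (Fin d ⊕ Fin d) (Fin d ⊕ Fin d) F) := by
      refine ⟨-1, ?_⟩
      rw [pow_two, Units.val_mul, hxx, neg_one_smul]
    have hns : ∀ z : F, (x : Matrix (Fin d ⊕ Fin d) (Fin d ⊕ Fin d) F) ≠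
        z • (1 : Matrix (Fin d ⊕ Fin d) (Fin d ⊕ Fin d) F) := by
      intro z hz
      rw [hz] at hxx
      have h3 := congrFun (congrFun hxx (Sum.inl ⟨0, by omega⟩)) (Sum.inl ⟨0, by omega⟩)
      simp at h3
      exact hsq ⟨z, h3.symm⟩
    obtain ⟨W, ⟨hfin, hnd, U, hUW, hUfin, hUts⟩, hinv⟩ := hall x hxΩ hzex hns
    have hNd : Nd (Cfsg.quadFormPlus d F) W := by
      intro u hu hu0
      obtain ⟨v, hv, hne⟩ := hnd u hu hu0
      exact ⟨⟨v, hv, by rwa [QuadraticMap.polar_comm]⟩, ⟨v, hv, hne⟩⟩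
    have hPlus : Plus (Cfsg.quadFormPlus d F) W := ⟨U, hUW, hUts, by rw [hUfin, hfin]⟩
    obtain ⟨k, hk⟩ := hme
    have hkev := (cpx_type hPerp hSum hCpx (Cfsg.quadFormPlus d F) hQ h2 hsq _ hxiso hxx k W hinv
      hNd (by omega)).mp hPlus
    obtain ⟨j, hj⟩ := hkev
    omega
  · -- (⇐)
    rintro hR x hxΩ ⟨z, hz⟩ hns
    have hxmem := hiso_of x hxΩ
    have hxiso : ∀ v, Cfsg.quadFormPlus d F ((x : Matrix (Fin d ⊕ Fin d) (Fin d ⊕ Fin d) F) *ᵥ v)
        = Cfsg.quadFormPlus d F v := fun v => hxmem v v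
    have hXX : (x : Matrix (Fin d ⊕ Fin d) (Fin d ⊕ Fin d) F) *
        (x : Matrix (Fin d ⊕ Fin d) (Fin d ⊕ Fin d) F) =
        z • (1 : Matrix (Fin d ⊕ Fin d) (Fin d ⊕ Fin d) F) := by
      rw [← hz, pow_two, Units.val_mul]
    have hscal : z * z = 1 := by
      apply hScal F (Fin d ⊕ Fin d) (Cfsg.quadFormPlus d F) hQ z
      intro v
      rw [← hXX, ← mulVec_mulVec, hxiso, hxiso]
    -- the common final step
    have fin_of : ∀ W : Submodule F (Fin d ⊕ Fin d → F), Module.finrank F W = m →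
        Nd (Cfsg.quadFormPlus d F) W → Plus (Cfsg.quadFormPlus d F) W →
        Inv (x : Matrix (Fin d ⊕ Fin d) (Fin d ⊕ Fin d) F) W →
        ∃ W : Submodule F (Fin d ⊕ Fin d → F),
        (Module.finrank F ↥W = m ∧
          (∀ u ∈ W, u ≠ 0 → ∃ v ∈ W, QuadraticMap.polar (Cfsg.quadFormPlus d F) u v ≠ 0) ∧
          ∃ U : Submodule F (Fin d ⊕ Fin d → F), U ≤ W ∧ 2 * Module.finrank F ↥U = m ∧
            ∀ u ∈ U, Cfsg.quadFormPlus d F u = 0) ∧
        W.map (Matrix.toLin' (x : Matrix (Fin d ⊕ Fin d) (Fin d ⊕ Fin d) F)) ≤ W := by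
      intro W hfin hNd hPlus hInv
      obtain ⟨U, hUW, hUts, hUfin⟩ := hPlus
      exact ⟨W, ⟨hfin, fun u hu hu0 => (hNd u hu hu0).2, U, hUW, by rw [hUfin, hfin], hUts⟩, hInv⟩
    rcases mul_self_eq_one_iff.mp hscal with rfl | rfl
    · -- x ^ 2 = 1
      have hx2 : x ^ 2 = 1 := by
        apply Units.ext
        rw [hz, one_smul, Units.val_one]
      obtain ⟨W, hfin, hnd, hplus, hinv⟩ := hInvolG F (Fin d ⊕ Fin d) (Cfsg.quadFormPlus d F) hQ h2
        x hxmem hx2 m True hme (by rw [hcard]; omega) (by rw [hcard]; omega) (fun _ => trivial)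
      exact fin_of W hfin hnd (hplus.mpr trivial) hinv
    · -- x * x = -1
      have hXX' : (x : Matrix (Fin d ⊕ Fin d) (Fin d ⊕ Fin d) F) *
          (x : Matrix (Fin d ⊕ Fin d) (Fin d ⊕ Fin d) F) = -1 := by
        rw [hXX, neg_one_smul]
      by_cases hsq : IsSquare (-1 : F)
      · obtain ⟨i, hi⟩ := hsq
        obtain ⟨W, hfin, hnd, hplus, hinv⟩ := hNeg1 F (Fin d ⊕ Fin d) (Cfsg.quadFormPlus d F) hQ h2
          _ hxiso hXX' i hi.symm m hme (by rw [hcard]; omega)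
        exact fin_of W hfin hnd hplus hinv
      · have htype := cpx_type hPerp hSum hCpx (Cfsg.quadFormPlus d F) hQ h2 hsq _ hxiso hXX' d ⊤
          (inv_top _) (nd_top _ hQ) (by rw [finrank_top, Module.finrank_fintype_fun_eq_card, hcard])
        obtain ⟨j, hj⟩ := htype.mp hPlusTop
        have hm4 : m % 4 = 0 := by
          rcases hR with h | h | h
          · omega
          · exact h
          · exfalso
            apply hsq
            rw [FiniteField.isSquare_neg_one_iff]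
            omega
        obtain ⟨k, hk⟩ := hme
        obtain ⟨W, hinv, hnd, hfin⟩ := cpx_exists hPerp hSum hCpx (Cfsg.quadFormPlus d F) hQ h2
          hsq _ hxiso hXX' k (by rw [hcard]; omega)
        have hplus := (cpx_type hPerp hSum hCpx (Cfsg.quadFormPlus d F) hQ h2 hsq _ hxiso hXX' k W
          hinv hnd hfin).mpr (by rw [Nat.even_iff]; omega)
        exact fin_of W (by omega) hnd hplus hinv

end Cfsg.Agent.Lib.Helper79.PHyp
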