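-- Team project PHYP (S5974, helper63), regime [T2O]: package [NEG1] (helper79).
import Mathlib
import Cfsg.Agent.Lib.Helper79.PHyp.T2O
import Cfsg.Agent.Lib.Helper79.PHyp.Cpx

set_option autoImplicit false
set_option linter.unusedSectionVars false
open scoped MatrixGroups
open Matrix

namespace Cfsg.Agent.Lib.Helper79.PHyp

open Cfsg.Agent.Lib.Helper23.OHyp

universe u

section gen
variable {F : Type u} [Field F] {ι : Type} [Fintype ι] [DecidableEq ι]

/-- `w - ε • x w` is an eigenvector of `x` for the eigenvalue `ε` when `x * x = -1 = ε * ε`. -/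
theorem comp_eig (x : Matrix ι ι F) (hxx : x * x = -1) (ε : F) (hε : ε * ε = -1) (w : ι → F) :
    x *ᵥ (w - ε • (x *ᵥ w)) = ε • (w - ε • (x *ᵥ w)) := by
  have hxxv : x *ᵥ (x *ᵥ w) = -w := by rw [mulVec_mulVec, hxx, neg_mulVec, one_mulVec]
  rw [mulVec_sub, mulVec_smul, hxxv]
  funext j
  simp only [Pi.sub_apply, Pi.smul_apply, Pi.neg_apply, smul_eq_mul]
  linear_combination ((x *ᵥ w) j) * hε

/-- A nonzero invariant nondegenerate subspace contains an invariant hyperbolic plane. -/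
theorem neg1_plane (Q : (ι → F) → F) (hQ : Cfsg.Geo.IsNondegenerateQuadraticForm Q)
    (h2 : (2 : F) ≠ 0) (x : Matrix ι ι F) (hx : ∀ v, Q (x *ᵥ v) = Q v) (hxx : x * x = -1)
    (i : F) (hi : i * i = -1) (W : Submodule F (ι → F)) (hinv : Inv x W) (hnd : Nd Q W)
    (hne : W ≠ ⊥) :
    ∃ H : Submodule F (ι → F), H ≤ W ∧ Inv x H ∧ Nd Q H ∧ Module.finrank F H = 2 ∧
      Plus Q H := by
  have hB := hQ.polar_bilinear
  have hQ0 := q_zero' Q hQ
  have hi' : (-i) * (-i) = -1 := by rw [neg_mul_neg, hi]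
  have hpc : ∀ a b : ι → F, QuadraticMap.polar Q a b = QuadraticMap.polar Q b a :=
    fun a b => QuadraticMap.polar_comm Q a b
  -- eigenvectors are singular
  have hsing : ∀ ε : F, ε * ε = -1 → ∀ v, x *ᵥ v = ε • v → Q v = 0 := by
    intro ε hε v hv
    have h1 := hx v
    rw [hv, hQ.smul] at h1
    have h3 : (2 : F) * Q v = 0 := by
      have h4 : ε ^ 2 = -1 := by rw [pow_two, hε]
      rw [h4] at h1
      linear_combination -h1
    rcases mul_eq_zero.mp h3 with h | h
    · exact absurd h h2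
    · exact h
  have hpol : ∀ ε : F, ε * ε = -1 → ∀ u v, x *ᵥ u = ε • u → x *ᵥ v = ε • v →
      QuadraticMap.polar Q u v = 0 := by
    intro ε hε u v hu hv
    unfold QuadraticMap.polar
    rw [hsing ε hε u hu, hsing ε hε v hv,
      hsing ε hε (u + v) (by rw [mulVec_add, hu, hv, smul_add])]
    ring
  have hxW : ∀ w ∈ W, x *ᵥ w ∈ W := fun w hw => hinv ⟨w, hw, by simp [Matrix.toLin'_apply]⟩
  -- a pair `e`, `f` of eigenvectors in `W` with `polar e f ≠ 0`
  obtain ⟨e, f, heW, hfW, he, hf, hc⟩ : ∃ e f : ι → F, e ∈ W ∧ f ∈ W ∧ x *ᵥ e = i • e ∧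
      x *ᵥ f = (-i) • f ∧ QuadraticMap.polar Q e f ≠ 0 := by
    obtain ⟨w, hwW, hw0⟩ := Submodule.exists_mem_ne_zero_of_ne_bot hne
    obtain ⟨-, ⟨u, huW, hu⟩⟩ := hnd w hwW hw0
    have hpw := comp_eig x hxx i hi w
    have hnw := comp_eig x hxx (-i) hi' w
    have hpu := comp_eig x hxx i hi u
    have hnu := comp_eig x hxx (-i) hi' u
    have hpwW : w - i • (x *ᵥ w) ∈ W := W.sub_mem hwW (W.smul_mem _ (hxW w hwW))
    have hnwW : w - (-i) • (x *ᵥ w) ∈ W := W.sub_mem hwW (W.smul_mem _ (hxW w hwW))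
    have hpuW : u - i • (x *ᵥ u) ∈ W := W.sub_mem huW (W.smul_mem _ (hxW u huW))
    have hnuW : u - (-i) • (x *ᵥ u) ∈ W := W.sub_mem huW (W.smul_mem _ (hxW u huW))
    have hsumw : (w - i • (x *ᵥ w)) + (w - (-i) • (x *ᵥ w)) = (2 : F) • w := by
      rw [two_smul, neg_smul]; abel
    have hsumu : (u - i • (x *ᵥ u)) + (u - (-i) • (x *ᵥ u)) = (2 : F) • u := by
      rw [two_smul, neg_smul]; abel
    have h4 : QuadraticMap.polar Q ((2 : F) • w) ((2 : F) • u) =
        QuadraticMap.polar Q (w - i • (x *ᵥ w)) (u - (-i) • (x *ᵥ u)) +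
        QuadraticMap.polar Q (w - (-i) • (x *ᵥ w)) (u - i • (x *ᵥ u)) := by
      rw [← hsumw, ← hsumu, hB.add_left, hB.add_right, hB.add_right,
        hpol i hi _ _ hpw hpu, hpol (-i) hi' _ _ hnw hnu]
      ring
    rw [hB.smul_left, hB.smul_right] at h4
    by_cases h5 : QuadraticMap.polar Q (w - i • (x *ᵥ w)) (u - (-i) • (x *ᵥ u)) = 0
    · refine ⟨u - i • (x *ᵥ u), w - (-i) • (x *ᵥ w), hpuW, hnwW, hpu, hnw, ?_⟩
      rw [hpc]
      intro h6
      rw [h5, h6] at h4
      have h7 : (2 : F) * (2 * QuadraticMap.polar Q w u) = 0 := by rw [h4]; ring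
      rcases mul_eq_zero.mp h7 with h | h
      · exact h2 h
      · rcases mul_eq_zero.mp h with h | h
        · exact h2 h
        · exact hu h
    · exact ⟨w - i • (x *ᵥ w), u - (-i) • (x *ᵥ u), hpwW, hnuW, hpw, hnu, h5⟩
  have hQe : Q e = 0 := hsing i hi e he
  have hQf : Q f = 0 := hsing (-i) hi' f hf
  have hee : QuadraticMap.polar Q e e = 0 := hpol i hi e e he he
  have hff : QuadraticMap.polar Q f f = 0 := hpol (-i) hi' f f hf hf
  have hmemH : ∀ z : ι → F, z ∈ Submodule.span F {e, f} ↔ ∃ a b : F, a • e + b • f = z :=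
    fun z => Submodule.mem_span_pair
  have hpf : ∀ a b : F, QuadraticMap.polar Q (a • e + b • f) f =
      a * QuadraticMap.polar Q e f := by
    intro a b
    rw [hB.add_left, hB.smul_left, hB.smul_left, hff]
    ring
  have hpe : ∀ a b : F, QuadraticMap.polar Q (a • e + b • f) e =
      b * QuadraticMap.polar Q e f := by
    intro a b
    rw [hB.add_left, hB.smul_left, hB.smul_left, hee, hpc f e]
    ring
  have hp0 : ∀ v : ι → F, QuadraticMap.polar Q 0 v = 0 := by
    intro v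
    unfold QuadraticMap.polar
    rw [zero_add, hQ0]
    ring
  have hli : LinearIndependent F ![e, f] := by
    rw [LinearIndependent.pair_iff]
    intro a b hab
    have h1 := hpf a b
    have h3 := hpe a b
    rw [hab, hp0] at h1 h3
    constructor
    · rcases mul_eq_zero.mp h1.symm with h | h
      · exact h
      · exact absurd h hc
    · rcases mul_eq_zero.mp h3.symm with h | h
      · exact h
      · exact absurd h hc
  have hfinH : Module.finrank F (Submodule.span F {e, f}) = 2 := by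
    have h1 := finrank_span_eq_card hli
    have hrange : Set.range ![e, f] = {e, f} := by
      simp [Set.pair_comm]
    rw [hrange] at h1
    exact h1
  have he0 : e ≠ 0 := by
    rintro rfl
    exact hc (hp0 f)
  refine ⟨Submodule.span F {e, f}, ?_, ?_, ?_, hfinH, ?_⟩
  · rw [Submodule.span_le]
    rintro z (rfl | rfl)
    · exact heW
    · exact hfW
  · rintro _ ⟨z, hz, rfl⟩
    obtain ⟨a, b, rfl⟩ := (hmemH z).mp hz
    rw [hmemH]
    refine ⟨a * i, b * (-i), ?_⟩
    rw [Matrix.toLin'_apply, mulVec_add, mulVec_smul, mulVec_smul, he, hf, smul_smul, smul_smul]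
  · intro z hz hz0
    obtain ⟨a, b, rfl⟩ := (hmemH z).mp hz
    by_cases ha : a = 0
    · have hb : b ≠ 0 := by
        rintro rfl
        apply hz0
        rw [ha]
        simp
      have h1 : QuadraticMap.polar Q (a • e + b • f) e ≠ 0 := by
        rw [hpe]
        exact mul_ne_zero hb hc
      have heH : e ∈ Submodule.span F {e, f} := Submodule.subset_span (by simp)
      exact ⟨⟨e, heH, by rwa [hpc]⟩, ⟨e, heH, h1⟩⟩
    · have h1 : QuadraticMap.polar Q (a • e + b • f) f ≠ 0 := by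
        rw [hpf]
        exact mul_ne_zero ha hc
      have hfH : f ∈ Submodule.span F {e, f} := Submodule.subset_span (by simp)
      exact ⟨⟨f, hfH, by rwa [hpc]⟩, ⟨f, hfH, h1⟩⟩
  · refine ⟨Submodule.span F {e}, Submodule.span_mono (by simp), ?_, ?_⟩
    · intro u hu
      obtain ⟨a, rfl⟩ := Submodule.mem_span_singleton.mp hu
      rw [hQ.smul, hQe, mul_zero]
    · rw [finrank_span_singleton he0, hfinH]

variable [Fintype F]

/-- Invariant hyperbolic subspaces of every even dimension. -/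
theorem neg1_exists (hPerp : PkgPerp.{u}) (hSum : PkgSum.{u})
    (Q : (ι → F) → F) (hQ : Cfsg.Geo.IsNondegenerateQuadraticForm Q) (h2 : (2 : F) ≠ 0)
    (x : Matrix ι ι F) (hx : ∀ v, Q (x *ᵥ v) = Q v) (hxx : x * x = -1) (i : F)
    (hi : i * i = -1) :
    ∀ k : ℕ, 2 * k ≤ Fintype.card ι →
      ∃ W : Submodule F (ι → F), Inv x W ∧ Nd Q W ∧ Plus Q W ∧ Module.finrank F W = 2 * k := by
  have hdet := isUnit_det_of_sq x hxx
  intro k
  induction k with
  | zero =>
    intro _
    exact ⟨⊥, inv_bot x, nd_bot Q, plus_bot Q hQ, by rw [finrank_bot]⟩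
  | succ k ih =>
    intro hk
    obtain ⟨W, hinv, hnd, hplus, hfin⟩ := ih (by omega)
    obtain ⟨W', -, hW'inv, hW'nd, hperp, hsup, hfinsum⟩ :=
      hPerp F ι Q hQ x hx hdet ⊤ W le_top (inv_top x) hinv (nd_top Q hQ) hnd
    have htop : Module.finrank F (⊤ : Submodule F (ι → F)) = Fintype.card ι := by
      rw [finrank_top, Module.finrank_fintype_fun_eq_card]
    have hW'fin : 2 ≤ Module.finrank F W' := by omega
    have hne : W' ≠ ⊥ := by
      rintro rfl
      rw [finrank_bot] at hW'fin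
      omega
    obtain ⟨H, hHW', hHinv, hHnd, hHfin, hHplus⟩ :=
      neg1_plane Q hQ h2 x hx hxx i hi W' hW'inv hW'nd hne
    have hperp' : Perp Q W H := fun u hu v hv => hperp u hu v (hHW' hv)
    obtain ⟨hnd', hfin', htype⟩ := hSum F ι Q hQ h2 W H hnd hHnd hperp'
    have h1 := htype (by rw [hfin]; exact even_two_mul k) (by rw [hHfin]; exact even_two)
    exact ⟨W ⊔ H, inv_sup x hinv hHinv, hnd', h1.mpr ⟨fun _ => hHplus, fun _ => hplus⟩,
      by rw [hfin', hfin, hHfin]; ring⟩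

end gen

/-- [NEG1] from PERP and SUM. -/
theorem pkgNeg1_of (hPerp : PkgPerp.{u}) (hSum : PkgSum.{u}) : PkgNeg1.{u} := by
  intro F _ _ ι _ _ Q hQ h2 x hx hxx i hi m hme hm
  obtain ⟨k, hk⟩ := hme
  obtain ⟨W, hinv, hnd, hplus, hfin⟩ :=
    neg1_exists hPerp hSum Q hQ h2 x hx hxx i hi k (by omega)
  exact ⟨W, by omega, hnd, hplus, hinv⟩

end Cfsg.Agent.Lib.Helper79.PHyp
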