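-- Team project PHYP (S5974, helper63), regime [T2O] (r = 2, q odd): the unconditional
-- package, in helper79's shape (`pkgT2O`) and in helper63's interface shape (`pkgT2O63`).
import Mathlib
import Cfsg.Agent.Lib.Helper79.PHyp.T2O
import Cfsg.Agent.Lib.Helper79.PHyp.Cpx
import Cfsg.Agent.Lib.Helper79.PHyp.Neg1
import Cfsg.Agent.Lib.Helper63.PHyp.Defs
import Cfsg.Agent.Lib.Helper45.OPar.Scal
import Cfsg.Agent.Lib.Helper84.OPar.PlusQ
import Cfsg.Agent.Lib.Helper38.OPar.Om1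
import Cfsg.Agent.Lib.Helper8.OEll.Invol
import Cfsg.Agent.Lib.Helper87.OHyp.Perp
import Cfsg.Agent.Lib.Helper1.OHyp.Sum

set_option autoImplicit false
open scoped MatrixGroups
open Matrix

namespace Cfsg.Agent.Lib.Helper79.PHyp

universe u

/-- [T2O], unconditional, in the shape of `T2ODefs`. -/
theorem pkgT2O : PkgT2O.{u} :=
  pkgT2O_of Cfsg.Agent.Lib.Helper45.OPar.pkgScal Cfsg.Agent.Lib.Helper84.OPar.pkgPlusQ
    Cfsg.Agent.Lib.Helper38.OPar.pkgOm1 Cfsg.Agent.Lib.Helper8.OEll.pkgInvolG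
    Cfsg.Agent.Lib.Helper87.OHyp.pkgPerp Cfsg.Agent.Lib.Helper1.OHyp.pkgSum
    (pkgNeg1_of Cfsg.Agent.Lib.Helper87.OHyp.pkgPerp Cfsg.Agent.Lib.Helper1.OHyp.pkgSum)
    pkgCpx

/-- [T2O], unconditional, in the shape of helper63's interface. -/
theorem pkgT2O63 : Cfsg.Agent.Lib.Helper63.PHyp.PkgT2O.{u} := by
  intro F _ _ d m h2 hd hm hme hmd
  have hodd : Odd (Fintype.card F) := by
    rw [← Nat.not_even_iff_odd, Nat.even_iff]
    intro hc
    apply h2
    have hch : ringChar F = 2 := FiniteField.even_card_iff_char_two.mpr hc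
    have : CharP F 2 := (ringChar.eq_iff.mp hch)
    exact CharTwo.two_eq_zero
  exact pkgT2O F hodd d m hd hm hme hmd

end Cfsg.Agent.Lib.Helper79.PHyp
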